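import Cfsg.Agent.Fi22.Quasi
import Cfsg.Agent.FiF6.Twist

/-!
# Linear algebra for three points
-/

set_option autoImplicit false
set_option linter.unusedSectionVars false

namespace Cfsg.Agent.FiF6

open Cfsg.Agent.Fi22 Cfsg.Agent.Uni

variable {F : Type*} [Field F] [Fintype F]

/-- a vector in general position -/
theorem exists_general (hF : Fintype.card F = 2 ^ 2) {p : Fin 3 → Fin 6 → F}
    (hp0 : ∀ i, p i ≠ 0) (hp : ∀ i j, hermForm 6 F 2 (p i) (p j) = 0) (h01 : NP (p 0) (p 1)) :
    ∃ q : Fin 6 → F, hermForm 6 F 2 q q = 0 ∧ (∀ i, hermForm 6 F 2 q (p i) = 0) ∧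
      ∀ (α β : F) (i : Fin 3), q + α • p 0 ≠ β • p i := by
  by_cases hd : ∃ x y : F, p 2 = x • p 0 + y • p 1
  · obtain ⟨x, y, hxy⟩ := hd
    have hli : IsTI 2 ![p 0, p 1] := by
      refine ⟨?_, ?_⟩
      · rw [Fintype.linearIndependent_iff]
        intro g hg
        rw [Fin.sum_univ_two] at hg
        simp only [Matrix.cons_val_zero, Matrix.cons_val_one] at hg
        have h1 : g 1 = 0 := by
          by_contra hne
          apply h01 (-(g 0) * (g 1)⁻¹)
          have : g 1 • p 1 = -(g 0) • p 0 := by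
            rw [neg_smul]; exact eq_neg_of_add_eq_zero_right hg
          calc p 1 = (g 1)⁻¹ • (g 1 • p 1) := by rw [smul_smul, inv_mul_cancel₀ hne, one_smul]
            _ = _ := by rw [this, smul_smul, mul_comm]
        have h0 : g 0 = 0 := by
          rw [h1, zero_smul, add_zero] at hg
          exact (smul_eq_zero.1 hg).resolve_right (hp0 0)
        intro i
        fin_cases i
        · exact h0
        · exact h1
      · intro i j
        fin_cases i <;> fin_cases j <;> simp [hp]
    obtain ⟨w, v, hwv, hw⟩ := exists_HB_of_TI hF (by norm_num) hli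
    have w0 : w 0 = p 0 := hw 0
    have w1 : w 1 = p 1 := hw 1
    have hr : ∀ i, ∃ s r : F, p i = s • w 0 + r • w 1 := by
      intro i
      fin_cases i
      · exact ⟨1, 0, by simp [w0]⟩
      · exact ⟨0, 1, by simp [w1]⟩
      · exact ⟨x, y, by rw [w0, w1]; exact hxy⟩
    refine ⟨w 2, hwv.uu _ _, ?_, ?_⟩
    · intro i
      obtain ⟨s, r, h⟩ := hr i
      rw [h, hermForm_add_right hF, hermForm_smul_right, hermForm_smul_right, hwv.uu, hwv.uu, mul_zero, mul_zero,
        add_zero]
    · intro α β i h
      obtain ⟨s, r, h'⟩ := hr i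
      have h2 := congrArg (fun z => hermForm 6 F 2 z (v 2)) h
      simp only [h', ← w0] at h2
      simp only [hermForm_add_left, hermForm_smul_left, hwv.uv] at h2
      simp at h2
  · push Not at hd
    have hli : IsTI 2 p := by
      refine ⟨?_, hp⟩
      rw [Fintype.linearIndependent_iff]
      intro g hg
      rw [Fin.sum_univ_three] at hg
      have h2 : g 2 = 0 := by
        by_contra hne
        apply hd (-(g 0) * (g 2)⁻¹) (-(g 1) * (g 2)⁻¹)
        have : g 2 • p 2 = -(g 0) • p 0 + -(g 1) • p 1 := by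
          rw [neg_smul, neg_smul, ← neg_add]; exact eq_neg_of_add_eq_zero_right hg
        calc p 2 = (g 2)⁻¹ • (g 2 • p 2) := by rw [smul_smul, inv_mul_cancel₀ hne, one_smul]
          _ = _ := by rw [this, smul_add, smul_smul, smul_smul, mul_comm, mul_comm (g 2)⁻¹ (-g 1)]
      rw [h2, zero_smul, add_zero] at hg
      have h1 : g 1 = 0 := by
        by_contra hne
        apply h01 (-(g 0) * (g 1)⁻¹)
        have : g 1 • p 1 = -(g 0) • p 0 := by
          rw [neg_smul]; exact eq_neg_of_add_eq_zero_right hg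
        calc p 1 = (g 1)⁻¹ • (g 1 • p 1) := by rw [smul_smul, inv_mul_cancel₀ hne, one_smul]
          _ = _ := by rw [this, smul_smul, mul_comm]
      have h0 : g 0 = 0 := by
        rw [h1, zero_smul, add_zero] at hg
        exact (smul_eq_zero.1 hg).resolve_right (hp0 0)
      intro i
      fin_cases i
      · exact h0
      · exact h1
      · exact h2
    obtain ⟨w, v, hwv, hw⟩ := exists_HB_of_TI hF le_rfl hli
    have hw' : ∀ i, w i = p i := hw
    refine ⟨w 1 + w 2, ?_, ?_, ?_⟩
    · simp only [hermForm_add_left, hermForm_add_right hF, hwv.uu, add_zero]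
    · intro i
      rw [← hw', hermForm_add_left, hwv.uu, hwv.uu, add_zero]
    · intro α β i h
      rw [← hw', ← hw'] at h
      have h1 := congrArg (fun z => hermForm 6 F 2 z (v 1)) h
      have h2 := congrArg (fun z => hermForm 6 F 2 z (v 2)) h
      simp only [hermForm_add_left, hermForm_smul_left, hwv.uv] at h1 h2
      fin_cases i <;> simp at h1 h2

/-- fixing all points in general position forces fixing the first one -/
theorem fix_first (hF : Fintype.card F = 2 ^ 2) {g : SU 6 F 2} {p : Fin 3 → Fin 6 → F}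
    (hp0 : ∀ i, p i ≠ 0) (hp : ∀ i j, hermForm 6 F 2 (p i) (p j) = 0) (h01 : NP (p 0) (p 1))
    (h : ∀ q, q ≠ 0 → hermForm 6 F 2 q q = 0 → (∀ i, hermForm 6 F 2 q (p i) = 0) → (∀ i (β : F), q ≠ β • p i) →
      ∃ c : F, act g q = c • q) : ∃ c : F, c ≠ 0 ∧ act g (p 0) = c • p 0 := by
  obtain ⟨q, hqq, hqp, hq⟩ := exists_general hF hp0 hp h01
  have key : ∀ α : F, ∃ c : F, act g (q + α • p 0) = c • (q + α • p 0) := by
    intro α
    apply h
    · intro h0
      apply hq α 0 0
      rw [h0, zero_smul]
    · rw [hermForm_add_left, hermForm_add_right hF, hermForm_add_right hF, hqq]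
      simp only [hermForm_smul_left, hermForm_smul_right, hqp, hp]
      rw [(hermForm_eq_zero_comm hF).1 (hqp 0)]
      simp
    · intro i
      rw [hermForm_add_left, hermForm_smul_left, hqp, hp]; simp
    · intro i β
      exact hq α β i
  obtain ⟨ω, hω⟩ := exists_omega hF
  obtain ⟨l, hl⟩ := key 0
  obtain ⟨m, hm⟩ := key 1
  obtain ⟨n, hn⟩ := key ω
  rw [zero_smul, add_zero] at hl
  rw [one_smul, act_add, hl] at hm
  rw [act_add, hl, act_smul] at hn
  have e1 : act g (p 0) = (m - l) • q + m • p 0 := by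
    have : act g (p 0) = (l • q + act g (p 0)) - l • q := by abel
    rw [this, hm]; module
  have e2 : (ω * (m - l) - n + l) • q + (ω * m - n * ω) • p 0 = 0 := by
    rw [e1] at hn
    have h1 : (l • q + ω • ((m - l) • q + m • p 0)) - n • (q + ω • p 0) = 0 := by rw [hn, sub_self]
    rw [← h1]; module
  have e3 : ω * (m - l) - n + l = 0 := by
    by_contra hne
    apply hq 0 (-(ω * m - n * ω) * (ω * (m - l) - n + l)⁻¹) 0
    rw [zero_smul, add_zero]
    have : (ω * (m - l) - n + l) • q = -(ω * m - n * ω) • p 0 := by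
      rw [neg_smul]; exact eq_neg_of_add_eq_zero_left e2
    calc q = (ω * (m - l) - n + l)⁻¹ • ((ω * (m - l) - n + l) • q) := by
          rw [smul_smul, inv_mul_cancel₀ hne, one_smul]
      _ = _ := by rw [this, smul_smul, mul_comm]
  rw [e3, zero_smul, zero_add] at e2
  have e4 : ω * m - n * ω = 0 := (smul_eq_zero.1 e2).resolve_right (hp0 0)
  have hω0 := omega_ne_zero hω
  have hω1 := omega_ne_one hF hω
  have e5 : m = n := by
    have : ω * (m - n) = 0 := by linear_combination e4
    rcases mul_eq_zero.1 this with h1 | h1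
    · exact absurd h1 hω0
    · exact sub_eq_zero.1 h1
  have e6 : m = l := by
    have : (ω - 1) * (m - l) = 0 := by rw [← e5] at e3; linear_combination e3
    rcases mul_eq_zero.1 this with h1 | h1
    · exact absurd (sub_eq_zero.1 h1) hω1
    · exact sub_eq_zero.1 h1
  rw [e6, sub_self, zero_smul, zero_add] at e1
  refine ⟨l, ?_, e1⟩
  rintro rfl
  rw [zero_smul] at e1
  have h2 : act g⁻¹ (act g (p 0)) = p 0 := by rw [← act_mul, inv_mul_cancel, act_one]
  rw [e1, act_zero] at h2
  exact hp0 0 h2.symm

end Cfsg.Agent.FiF6
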