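import Cfsg.Agent.Fi22.Par24c
import Cfsg.Agent.FiF6.AutQ
import Cfsg.Agent.FiF4.Inst24

/-!
# Three commuting members of a class of type M(24): the centraliser
-/

set_option autoImplicit false
set_option linter.unusedSectionVars false

namespace Cfsg.Agent.FiF6

open Cfsg.Agent.ThreeTransp Cfsg.Agent.Fi22 Cfsg.Agent.FiF4 Cfsg.Agent.Uni

section klein

variable {G : Type*} [Group G] {a e f : G}

theorem mem_klein (haa : a * a = 1) (hee : e * e = 1) (hff : f * f = 1) (hae : Commute a e) (haf : Commute a f)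
    (hef : Commute e f) {g : G} : g ∈ Subgroup.closure ({a * e, a * f} : Set G) ↔
      g = 1 ∨ g = a * e ∨ g = a * f ∨ g = e * f := by
  have sw : ∀ {x y : G}, Commute x y → x * x = 1 → y * y = 1 → (x * y) * (x * y) = 1 := by
    intro x y hxy hx hy
    rw [hxy.symm.mul_mul_mul_comm x y, hx, hy, one_mul]
  have ll : ∀ {x y z : G}, Commute x y → x * x = 1 → (x * y) * (x * z) = y * z := by
    intro x y z hxy hx
    rw [hxy.symm.mul_mul_mul_comm x z, hx, one_mul]
  have h1 : (a * e) * (a * e) = 1 := sw hae haa hee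
  have h2 : (a * f) * (a * f) = 1 := sw haf haa hff
  have h3 : (e * f) * (e * f) = 1 := sw hef hee hff
  have h4 : (a * e) * (a * f) = e * f := ll hae haa
  have h5 : (a * f) * (a * e) = e * f := by rw [ll haf haa, hef.eq]
  have h6 : (a * e) * (e * f) = a * f := by rw [hae.eq, ll hae.symm hee]
  have h7 : (a * f) * (e * f) = a * e := by rw [haf.eq, hef.eq, ll haf.symm hff]
  have h8 : (e * f) * (a * e) = a * f := by rw [hae.eq, ll hef hee, haf.eq]
  have h9 : (e * f) * (a * f) = a * e := by rw [haf.eq, hef.eq, ll hef.symm hff, hae.eq]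
  constructor
  · intro hg
    refine Subgroup.closure_induction (p := fun g _ => g = 1 ∨ g = a * e ∨ g = a * f ∨ g = e * f) ?_ ?_ ?_ ?_ hg
    · rintro x (rfl | hx)
      · exact Or.inr (Or.inl rfl)
      · rw [Set.mem_singleton_iff.1 hx]; exact Or.inr (Or.inr (Or.inl rfl))
    · exact Or.inl rfl
    · rintro x y - - hx hy
      rcases hx with rfl | rfl | rfl | rfl <;> rcases hy with rfl | rfl | rfl | rfl <;>
        simp only [one_mul, mul_one, h1, h2, h3, h4, h5, h6, h7, h8, h9, true_or, or_true]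
    · rintro x - hx
      rcases hx with rfl | rfl | rfl | rfl
      · exact Or.inl inv_one
      · exact Or.inr (Or.inl (inv_eq_of_mul_eq_one_left h1))
      · exact Or.inr (Or.inr (Or.inl (inv_eq_of_mul_eq_one_left h2)))
      · exact Or.inr (Or.inr (Or.inr (inv_eq_of_mul_eq_one_left h3)))
  · rintro (rfl | rfl | rfl | rfl)
    · exact one_mem _
    · exact Subgroup.subset_closure (by simp)
    · exact Subgroup.subset_closure (by simp)
    · rw [← h4]; exact mul_mem (Subgroup.subset_closure (by simp)) (Subgroup.subset_closure (by simp))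

end klein

variable {G : Type*} [Group G] [Finite G] {D : Set G}

/-- three commuting members of a class of type M(24) -/
structure T3 (D : Set G) (a e f : G) : Prop where
  h : H24 D
  hF : FHyp D
  hc3 : ∀ d ∈ D, Cfsg.pCore 3 ↥(Subgroup.closure (perp D d)) ≤ Subgroup.center ↥(Subgroup.closure (perp D d))
  ha : a ∈ D
  he : e ∈ perp D a
  hf : f ∈ perp D a ∩ perp D e

namespace T3

variable {a e f : G} (t : T3 D a e f)
include t

theorem hD : Cfsg.IsThreeTranspositionSet D := t.h.cls.1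
theorem heD : e ∈ D := t.he.1
theorem hfD : f ∈ D := t.hf.1.1
theorem ae : Commute a e := t.he.2.2
theorem af : Commute a f := t.hf.1.2.2
theorem ef : Commute e f := t.hf.2.2.2
theorem ne_ae : a ≠ e := t.he.2.1.symm
theorem ne_af : a ≠ f := t.hf.1.2.1.symm
theorem ne_ef : e ≠ f := t.hf.2.2.1.symm
theorem aa : a * a = 1 := mul_self t.hD t.ha
theorem ee : e * e = 1 := mul_self t.hD t.heD
theorem ff : f * f = 1 := mul_self t.hD t.hfD

theorem swap1 : T3 D e a f := ⟨t.h, t.hF, t.hc3, t.heD, ⟨t.ha, t.ne_ae, t.ae.symm⟩, t.hf.2, t.hf.1⟩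
theorem swap2 : T3 D a f e := ⟨t.h, t.hF, t.hc3, t.ha, t.hf.1, t.he, ⟨t.heD, t.ne_ef, t.ef.symm⟩⟩

theorem X23 : H23 (qperp D a) := t.h.all t.ha

theorem ebar : qφ D a e ∈ qperp D a := by rw [qφ_eq t.he]; exact qm_mem t.he

theorem fbar : qφ D a f ∈ perp (qperp D a) (qφ D a e) := t.h.f_up t.ha t.he t.hf

theorem mem_C3 {g : G} : g ∈ Subgroup.centralizer ({a, e, f} : Set G) ↔ Commute a g ∧ Commute e g ∧ Commute f g := by
  rw [Subgroup.mem_centralizer_iff]
  simp only [Set.mem_insert_iff, Set.mem_singleton_iff, forall_eq_or_imp, forall_eq]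
  rfl

theorem LS_pair : LS D a {qφ D a e, qφ D a f} = {e, f} := by
  obtain ⟨e₀, he₀, hae₀⟩ := t.h.core.nc a t.ha
  rw [Set.insert_eq, LS_union, LS_singleton t.h.cls t.h.irr t.ha he₀ hae₀ t.he,
    LS_singleton t.h.cls t.h.irr t.ha he₀ hae₀ t.hf.1, ← Set.insert_eq]

/-- the joint centraliser through the quotient at `a` -/
theorem mem_C3_iff {g : G} : g ∈ Subgroup.centralizer ({a, e, f} : Set G) ↔
    ∃ hg : g ∈ Subgroup.closure (perp D a), ((⟨g, hg⟩ : ↥(Subgroup.closure (perp D a))) :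
        ↥(Subgroup.closure (perp D a)) ⧸ Subgroup.center ↥(Subgroup.closure (perp D a))) ∈
          H23.MM (qperp D a) (qφ D a e) (qφ D a f) := by
  obtain ⟨e₀, he₀, hae₀⟩ := t.h.core.nc a t.ha
  have h1 := mem_centralizer_LS t.h.cls t.h.irr t.ha he₀ hae₀ (t.h.centralizer_eq t.ha)
    (T' := {qφ D a e, qφ D a f}) (by
      rintro u (rfl | hu)
      · exact t.ebar
      · rw [Set.mem_singleton_iff.1 hu]; exact t.fbar.1) (g := g)
  rw [t.LS_pair, t.X23.centralizer_pair t.ebar t.fbar] at h1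
  rw [← h1]
  rfl

theorem exists_chi : ∃ χ : G →* ℤˣ, (∀ d ∈ D, χ d = -1) ∧ ∀ g, g ∈ commutator G ↔ χ g = 1 := by
  obtain ⟨χ, hχ⟩ := t.h.exists_parity
  refine ⟨χ, hχ, ?_⟩
  have h1 : commutator G ≤ χ.ker := Abelianization.commutator_subset_ker χ
  have h2 : χ.ker.index = 2 := by
    rw [Subgroup.index_ker]
    have h3 : Nat.card χ.range ∣ Nat.card ℤˣ := Subgroup.card_subgroup_dvd_card _
    have h4 : Nat.card ℤˣ = 2 := by rw [Nat.card_eq_fintype_card]; rfl
    rw [h4] at h3
    rcases (Nat.dvd_prime Nat.prime_two).1 h3 with h5 | h5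
    · exfalso
      rw [Subgroup.card_eq_one] at h5
      have h6 : χ a ∈ χ.range := ⟨a, rfl⟩
      rw [h5, Subgroup.mem_bot, hχ a t.ha] at h6
      exact absurd h6 (by decide)
    · exact h5
  have h3 : commutator G = χ.ker := by
    apply Subgroup.eq_of_le_of_card_ge h1
    have e1 := (commutator G).card_mul_index
    have e2 := χ.ker.card_mul_index
    rw [t.h.index_commutator] at e1
    rw [h2] at e2
    omega
  intro g
  rw [h3, MonoidHom.mem_ker]

theorem mul_mem_L {x y : G} (hx : x ∈ D) (hy : y ∈ D) : x * y ∈ commutator G := by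
  obtain ⟨χ, hχ, hL⟩ := t.exists_chi
  rw [hL, map_mul, hχ x hx, hχ y hy]; decide

theorem not_mem_L {x : G} (hx : x ∈ D) : x ∉ commutator G := by
  obtain ⟨χ, hχ, hL⟩ := t.exists_chi
  rw [hL, hχ x hx]; decide

theorem mem_L_or {x : G} (hx : x ∈ D) (g : G) : g ∈ commutator G ∨ g * x ∈ commutator G := by
  obtain ⟨χ, hχ, hL⟩ := t.exists_chi
  rw [hL, hL, map_mul, hχ x hx]
  rcases Int.units_eq_one_or (χ g) with h1 | h1 <;> rw [h1]
  · exact Or.inl rfl
  · right; decide

/-- the homomorphism to the quotient at `a` -/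
noncomputable def β : ↥(commutator G ⊓ Subgroup.centralizer ({a, e, f} : Set G)) →*
    ↥(H23.MM (qperp D a) (qφ D a e) (qφ D a f)) where
  toFun k := ⟨_, (t.mem_C3_iff.1 k.2.2).choose_spec⟩
  map_one' := Subtype.ext rfl
  map_mul' _ _ := Subtype.ext rfl

theorem β_val (k : ↥(commutator G ⊓ Subgroup.centralizer ({a, e, f} : Set G)))
    (hk : (k : G) ∈ Subgroup.closure (perp D a)) :
    (t.β k : ↥(Subgroup.closure (perp D a)) ⧸ Subgroup.center ↥(Subgroup.closure (perp D a))) =
      ((⟨k, hk⟩ : ↥(Subgroup.closure (perp D a))) : _) := rfl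

theorem one_or_a {g : G} (hg : g ∈ Subgroup.closure (perp D a)) (h1 : ((⟨g, hg⟩ : ↥(Subgroup.closure (perp D a))) :
        ↥(Subgroup.closure (perp D a)) ⧸ Subgroup.center ↥(Subgroup.closure (perp D a))) = 1) : g = 1 ∨ g = a := by
  rw [QuotientGroup.eq_one_iff, Dict.mem_center_iff'] at h1
  exact t.h.high.cp a t.ha g h1

theorem a_central : ((⟨a, t.h.high.self t.ha⟩ : ↥(Subgroup.closure (perp D a))) :
        ↥(Subgroup.closure (perp D a)) ⧸ Subgroup.center ↥(Subgroup.closure (perp D a))) = 1 := by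
  rw [QuotientGroup.eq_one_iff, Dict.mem_center_iff']
  intro y hy
  exact hy.2.2.symm

theorem β_inj : Function.Injective t.β := by
  rw [injective_iff_map_eq_one]
  rintro ⟨k, hk, hk3⟩ h1
  obtain ⟨hg, -⟩ := t.mem_C3_iff.1 hk3
  have h2 := congrArg Subtype.val h1
  rw [t.β_val _ hg] at h2
  rcases t.one_or_a hg h2 with h3 | h3
  · exact Subtype.ext h3
  · exfalso
    exact t.not_mem_L t.ha (by rw [← h3]; exact hk)

theorem β_surj : Function.Surjective t.β := by
  rintro ⟨z, hz⟩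
  obtain ⟨⟨g, hg⟩, rfl⟩ := QuotientGroup.mk_surjective z
  have hg3 : g ∈ Subgroup.centralizer ({a, e, f} : Set G) := t.mem_C3_iff.2 ⟨hg, hz⟩
  rcases t.mem_L_or t.ha g with h1 | h1
  · exact ⟨⟨g, h1, hg3⟩, rfl⟩
  · refine ⟨⟨g * a, h1, mul_mem hg3 (t.mem_C3.2 ⟨Commute.refl a, t.ae.symm, t.af.symm⟩)⟩, Subtype.ext ?_⟩
    rw [t.β_val _ (mul_mem hg (t.h.high.self t.ha))]
    have e1 : ((⟨g * a, mul_mem hg (t.h.high.self t.ha)⟩ : ↥(Subgroup.closure (perp D a))) :
        ↥(Subgroup.closure (perp D a)) ⧸ Subgroup.center ↥(Subgroup.closure (perp D a))) =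
        ((⟨g, hg⟩ : ↥(Subgroup.closure (perp D a))) : _) *
        ((⟨a, t.h.high.self t.ha⟩ : ↥(Subgroup.closure (perp D a))) : _) := rfl
    rw [e1, t.a_central, mul_one]

noncomputable def βe : ↥(commutator G ⊓ Subgroup.centralizer ({a, e, f} : Set G)) ≃*
    ↥(H23.MM (qperp D a) (qφ D a e) (qφ D a f)) := MulEquiv.ofBijective t.β ⟨t.β_inj, t.β_surj⟩

theorem quasi_K : Cfsg.IsQuasisimple ↥(commutator G ⊓ Subgroup.centralizer ({a, e, f} : Set G)) :=
  (FStar.isQuasisimple_congr t.βe).2 (t.X23.quasi_MM t.ebar t.fbar)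

theorem mem_E {g : G} : g ∈ Subgroup.closure ({a * e, a * f} : Set G) ↔
      g = 1 ∨ g = a * e ∨ g = a * f ∨ g = e * f := mem_klein t.aa t.ee t.ff t.ae t.af t.ef

theorem E_le_K : Subgroup.closure ({a * e, a * f} : Set G) ≤
    commutator G ⊓ Subgroup.centralizer ({a, e, f} : Set G) := by
  rw [Subgroup.closure_le]
  rintro x (rfl | hx)
  · exact ⟨t.mul_mem_L t.ha t.heD, t.mem_C3.2 ⟨(Commute.refl a).mul_right t.ae, t.ae.symm.mul_right (Commute.refl e),
      t.af.symm.mul_right t.ef.symm⟩⟩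
  · rw [Set.mem_singleton_iff.1 hx]
    exact ⟨t.mul_mem_L t.ha t.hfD, t.mem_C3.2 ⟨(Commute.refl a).mul_right t.af, t.ae.symm.mul_right t.ef,
      t.af.symm.mul_right (Commute.refl f)⟩⟩

theorem mk_e {x : G} (hx : x ∈ perp D a) : ((⟨x, Subgroup.subset_closure hx⟩ : ↥(Subgroup.closure (perp D a))) :
        ↥(Subgroup.closure (perp D a)) ⧸ Subgroup.center ↥(Subgroup.closure (perp D a))) = qφ D a x := by
  rw [qφ_eq hx]; rfl

theorem mk_mul {x y : G} (hx : x ∈ Subgroup.closure (perp D a)) (hy : y ∈ Subgroup.closure (perp D a)) :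
    ((⟨x * y, mul_mem hx hy⟩ : ↥(Subgroup.closure (perp D a))) :
        ↥(Subgroup.closure (perp D a)) ⧸ Subgroup.center ↥(Subgroup.closure (perp D a))) =
    ((⟨x, hx⟩ : ↥(Subgroup.closure (perp D a))) : _) * ((⟨y, hy⟩ : ↥(Subgroup.closure (perp D a))) : _) := rfl

theorem sub_e {x : G} (hx : x ∈ perp D a) : x ∈ Subgroup.closure (perp D a) := Subgroup.subset_closure hx

theorem ae_mem_K : a * e ∈ commutator G ⊓ Subgroup.centralizer ({a, e, f} : Set G) :=
  t.E_le_K (Subgroup.subset_closure (by simp))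

theorem af_mem_K : a * f ∈ commutator G ⊓ Subgroup.centralizer ({a, e, f} : Set G) :=
  t.E_le_K (Subgroup.subset_closure (by simp))

theorem ef_mem_K : e * f ∈ commutator G ⊓ Subgroup.centralizer ({a, e, f} : Set G) :=
  t.E_le_K (t.mem_E.2 (by simp))

theorem β_ae : (t.β ⟨a * e, t.ae_mem_K⟩ : ↥(Subgroup.closure (perp D a)) ⧸
    Subgroup.center ↥(Subgroup.closure (perp D a))) = qφ D a e := by
  rw [t.β_val _ (mul_mem (t.h.high.self t.ha) (t.sub_e t.he)), t.mk_mul (t.h.high.self t.ha) (t.sub_e t.he),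
    t.a_central, one_mul, t.mk_e t.he]

theorem β_af : (t.β ⟨a * f, t.af_mem_K⟩ : ↥(Subgroup.closure (perp D a)) ⧸
    Subgroup.center ↥(Subgroup.closure (perp D a))) = qφ D a f := by
  rw [t.β_val _ (mul_mem (t.h.high.self t.ha) (t.sub_e t.hf.1)), t.mk_mul (t.h.high.self t.ha) (t.sub_e t.hf.1),
    t.a_central, one_mul, t.mk_e t.hf.1]

theorem β_ef : (t.β ⟨e * f, t.ef_mem_K⟩ : ↥(Subgroup.closure (perp D a)) ⧸
    Subgroup.center ↥(Subgroup.closure (perp D a))) = qφ D a e * qφ D a f := by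
  rw [t.β_val _ (mul_mem (t.sub_e t.he) (t.sub_e t.hf.1)), t.mk_mul (t.sub_e t.he) (t.sub_e t.hf.1),
    t.mk_e t.he, t.mk_e t.hf.1]

theorem β_one : (t.β ⟨1, one_mem _⟩ : ↥(Subgroup.closure (perp D a)) ⧸
    Subgroup.center ↥(Subgroup.closure (perp D a))) = 1 := rfl

theorem mem_Ebar {z : ↥(Subgroup.closure (perp D a)) ⧸ Subgroup.center ↥(Subgroup.closure (perp D a))} :
    z ∈ Subgroup.closure ({qφ D a e, qφ D a f} : Set _) ↔ z = 1 ∨ z = qφ D a e ∨ z = qφ D a f ∨
      z = qφ D a e * qφ D a f := by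
  have h1 : Subgroup.closure ({qφ D a e, qφ D a f} : Set (↥(Subgroup.closure (perp D a)) ⧸
      Subgroup.center ↥(Subgroup.closure (perp D a)))) =
    Subgroup.closure ({1 * qφ D a e, 1 * qφ D a f} : Set _) := by rw [one_mul, one_mul]
  have h2 := mem_klein (a := (1 : ↥(Subgroup.closure (perp D a)) ⧸ Subgroup.center ↥(Subgroup.closure (perp D a))))
    (e := qφ D a e) (f := qφ D a f) (g := z) (one_mul 1) (mul_self t.X23.cls.1 t.ebar)
    (mul_self t.X23.cls.1 t.fbar.1) (Commute.one_left _) (Commute.one_left _) t.fbar.2.2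
  rw [h1, h2, one_mul, one_mul]

theorem β_E (k : ↥(commutator G ⊓ Subgroup.centralizer ({a, e, f} : Set G))) :
    (t.β k : ↥(Subgroup.closure (perp D a)) ⧸ Subgroup.center ↥(Subgroup.closure (perp D a))) ∈
      Subgroup.closure ({qφ D a e, qφ D a f} : Set _) ↔ (k : G) ∈ Subgroup.closure ({a * e, a * f} : Set G) := by
  rw [t.mem_Ebar, t.mem_E]
  constructor
  · rintro (h1 | h1 | h1 | h1)
    · have := t.β_inj (Subtype.ext (h1.trans t.β_one.symm))
      left; rw [this]
    · have := t.β_inj (Subtype.ext (h1.trans t.β_ae.symm))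
      right; left; rw [this]
    · have := t.β_inj (Subtype.ext (h1.trans t.β_af.symm))
      right; right; left; rw [this]
    · have := t.β_inj (Subtype.ext (h1.trans t.β_ef.symm))
      right; right; right; rw [this]
  · obtain ⟨k, hk⟩ := k
    rintro (h1 | h1 | h1 | h1)
    · have h2 : k = 1 := h1
      subst h2
      left; exact t.β_one
    · have h2 : k = a * e := h1
      subst h2
      right; left; exact t.β_ae
    · have h2 : k = a * f := h1
      subst h2
      right; right; left; exact t.β_af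
    · have h2 : k = e * f := h1
      subst h2
      right; right; right; exact t.β_ef

theorem mem_center_K (k : ↥(commutator G ⊓ Subgroup.centralizer ({a, e, f} : Set G))) :
    k ∈ Subgroup.center _ ↔ (k : G) ∈ Subgroup.closure ({a * e, a * f} : Set G) := by
  rw [← t.β_E, ← Subgroup.mem_subgroupOf (K := H23.MM (qperp D a) (qφ D a e) (qφ D a f)),
    ← t.X23.center_MM t.ebar t.fbar]
  rw [Subgroup.mem_center_iff, Subgroup.mem_center_iff]
  constructor
  · intro h1 g
    obtain ⟨g', rfl⟩ := t.β_surj g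
    rw [← map_mul, h1, map_mul]
  · intro h1 g
    apply t.β_inj
    rw [map_mul, h1, map_mul]

theorem center_K : (Subgroup.center ↥(commutator G ⊓ Subgroup.centralizer ({a, e, f} : Set G))).map
    (commutator G ⊓ Subgroup.centralizer ({a, e, f} : Set G)).subtype = Subgroup.closure ({a * e, a * f} : Set G) := by
  ext g
  constructor
  · rintro ⟨k, hk, rfl⟩
    exact (t.mem_center_K k).1 hk
  · intro hg
    exact ⟨⟨g, t.E_le_K hg⟩, (t.mem_center_K _).2 hg, rfl⟩

/-- the map onto the unitary group -/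
theorem exists_φ : ∃ (F : Type) (_ : Field F) (_ : Fintype F), Fintype.card F = 4 ∧
    ∃ φ : ↥(commutator G ⊓ Subgroup.centralizer ({a, e, f} : Set G)) →* Cfsg.PSU 6 F 2, Function.Surjective φ ∧
      ∀ k, φ k = 1 ↔ (k : G) ∈ Subgroup.closure ({a * e, a * f} : Set G) := by
  obtain ⟨F, i1, i2, hF, ⟨g⟩⟩ := t.X23.exists_quot t.ebar t.fbar
  refine ⟨F, i1, i2, hF, (g.toMonoidHom.comp (QuotientGroup.mk' _)).comp t.β, ?_, ?_⟩
  · exact (g.surjective.comp (QuotientGroup.mk'_surjective _)).comp t.β_surj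
  · intro k
    have h1 : ((g.toMonoidHom.comp (QuotientGroup.mk' _)).comp t.β) k = g (QuotientGroup.mk' _ (t.β k)) := rfl
    rw [h1, map_eq_one_iff g g.injective, QuotientGroup.mk'_apply, QuotientGroup.eq_one_iff,
      t.X23.center_MM t.ebar t.fbar, Subgroup.mem_subgroupOf, t.β_E]

end T3

end Cfsg.Agent.FiF6
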