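import Cfsg.Agent.FiF6.Trip24
import Cfsg.Agent.FiF6.LinFix

/-!
# Three commuting members of a class of type M(24): faithful action
-/

set_option autoImplicit false
set_option linter.unusedSectionVars false

namespace Cfsg.Agent.FiF6

open Cfsg.Agent.ThreeTransp Cfsg.Agent.Fi22 Cfsg.Agent.FiF4 Cfsg.Agent.Uni

variable {G : Type*} [Group G] [Finite G] {D : Set G}

/-- the members commuting with three given ones -/
def P3 (D : Set G) (a e f : G) : Set G := (perp D a ∩ perp D e) ∩ (perp D a ∩ perp D f)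

theorem mem_P3 {a e f x : G} : x ∈ P3 D a e f ↔
    x ∈ D ∧ x ≠ a ∧ x ≠ e ∧ x ≠ f ∧ Commute a x ∧ Commute e x ∧ Commute f x := by
  constructor
  · rintro ⟨⟨h1, h2⟩, -, h3⟩
    exact ⟨h1.1, h1.2.1, h2.2.1, h3.2.1, h1.2.2, h2.2.2, h3.2.2⟩
  · rintro ⟨h1, h2, h3, h4, h5, h6, h7⟩
    exact ⟨⟨⟨h1, h2, h5⟩, ⟨h1, h3, h6⟩⟩, ⟨h1, h2, h5⟩, ⟨h1, h4, h7⟩⟩

namespace T3

variable {a e f : G} (t : T3 D a e f)
include t

theorem centralizer_le : Subgroup.centralizer ({a} ∪ {e, f}) ≤ Subgroup.closure ({a} ∪ P3 D a e f) := by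
  obtain ⟨e₀, he₀, hae₀⟩ := t.h.core.nc a t.ha
  have h1 := (t.X23.centralizer_pair t.ebar t.fbar).le
  have h2 := cl_up t.h.cls t.h.irr t.ha he₀ hae₀ (t.h.centralizer_eq t.ha) (t.h.high.cp a t.ha)
    (T' := {qφ D a e, qφ D a f}) (by
      rintro u (rfl | hu)
      · exact t.ebar
      · rw [Set.mem_singleton_iff.1 hu]; exact t.fbar.1) (fun u hu => hu.1.1) h1
  rw [t.LS_pair, LS_inter t.h.cls t.h.irr t.ha he₀ hae₀, LS_perp t.h.cls t.h.irr t.ha he₀ hae₀ t.he,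
    LS_perp t.h.cls t.h.irr t.ha he₀ hae₀ t.hf.1] at h2
  exact h2

/-- the joint centraliser acts linearly -/
theorem exists_lin {F : Type} [Field F] [Fintype F] (Δ : Fi22.PD (P3 D a e f) ({a} ∪ ({e} ∪ {f})) F) {c : G}
    (hc : c ∈ Subgroup.centralizer ({a, e, f} : Set G)) :
    ∃ g : SU 6 F 2, ∀ u, u ≠ 0 → hermForm 6 F 2 u u = 0 → c * Δ.pt u * c⁻¹ = Δ.pt (act g u) := by
  have hc' : c ∈ Subgroup.centralizer ({a} ∪ {e, f}) := by
    rw [← Set.insert_eq]; exact hc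
  refine Subgroup.closure_induction (p := fun c _ => ∃ g : SU 6 F 2, ∀ u, u ≠ 0 → hermForm 6 F 2 u u = 0 →
    c * Δ.pt u * c⁻¹ = Δ.pt (act g u)) ?_ ?_ ?_ ?_ (t.centralizer_le hc')
  · rintro x (hx | hx)
    · rw [Set.mem_singleton_iff.1 hx]
      refine ⟨1, fun u hu0 hu => ?_⟩
      rw [act_one, ((mem_P3.1 (Δ.mem u hu0 hu)).2.2.2.2.1).eq, mul_inv_cancel_right]
    · obtain ⟨w, hw0, hw, rfl⟩ := Δ.surj x hx
      refine ⟨tv w, fun u hu0 hu => ?_⟩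
      rw [Δ.conj w u hw0 hw hu0 hu, tv_act Δ.hF hw]
  · exact ⟨1, fun u _ _ => by rw [act_one, one_mul, inv_one, mul_one]⟩
  · rintro x y - - ⟨g, hg⟩ ⟨k, hk⟩
    refine ⟨g * k, fun u hu0 hu => ?_⟩
    have e1 : x * y * Δ.pt u * (x * y)⁻¹ = x * (y * Δ.pt u * y⁻¹) * x⁻¹ := by group
    rw [e1, hk u hu0 hu, hg _ (act_ne_zero hu0) (by rw [act_form]; exact hu), act_mul]
  · rintro x - ⟨g, hg⟩
    refine ⟨g⁻¹, fun u hu0 hu => ?_⟩
    have h1 := hg (act g⁻¹ u) (act_ne_zero hu0) (by rw [act_form]; exact hu)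
    rw [← act_mul, mul_inv_cancel, act_one] at h1
    rw [← h1]; group

/-- three commuting members in `P3` -/
theorem exists_xyz : ∃ x y z, T3 D x y z ∧ x ∈ P3 D a e f ∧ y ∈ P3 D a e f ∧ z ∈ P3 D a e f := by
  obtain ⟨F, i1, i2, ⟨Δ⟩⟩ := t.h.exists_pd t.ha t.he t.hf
  obtain ⟨U, V, hUV⟩ := exists_HB Δ.hF
  have n : ∀ i, U i ≠ 0 := by
    intro i h0
    have := hUV.uv i i
    rw [h0, hermForm_zero_left] at this
    simp at this
  have hne : ∀ i j, i ≠ j → Δ.pt (U i) ≠ Δ.pt (U j) := by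
    intro i j hij h1
    obtain ⟨c, -, hc⟩ := Δ.inj _ _ (n i) (hUV.uu i i) (n j) (hUV.uu j j) h1
    have h2 := hUV.uv j j
    rw [hc, hermForm_smul_left, hUV.uv, if_neg hij] at h2
    simp at h2
  have hm : ∀ i, Δ.pt (U i) ∈ P3 D a e f := fun i => Δ.mem _ (n i) (hUV.uu i i)
  have hcm : ∀ i j, Commute (Δ.pt (U i)) (Δ.pt (U j)) := fun i j =>
    (Δ.comm _ _ (n i) (hUV.uu i i) (n j) (hUV.uu j j)).2 (hUV.uu i j)
  have hD : ∀ i, Δ.pt (U i) ∈ D := fun i => (mem_P3.1 (hm i)).1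
  refine ⟨Δ.pt (U 0), Δ.pt (U 1), Δ.pt (U 2), ⟨t.h, t.hF, t.hc3, hD 0, ⟨hD 1, hne 1 0 (by decide), hcm 0 1⟩,
    ⟨hD 2, hne 2 0 (by decide), hcm 0 2⟩, ⟨hD 2, hne 2 1 (by decide), hcm 1 2⟩⟩, hm 0, hm 1, hm 2⟩

theorem symm_mem {x y z : G} (hx : x ∈ P3 D a e f) (hy : y ∈ P3 D a e f) (hz : z ∈ P3 D a e f) :
    a ∈ P3 D x y z ∧ e ∈ P3 D x y z ∧ f ∈ P3 D x y z := by
  rw [mem_P3] at hx hy hz
  refine ⟨mem_P3.2 ⟨t.ha, hx.2.1.symm, hy.2.1.symm, hz.2.1.symm, hx.2.2.2.2.1.symm, hy.2.2.2.2.1.symm,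
    hz.2.2.2.2.1.symm⟩, mem_P3.2 ⟨t.heD, hx.2.2.1.symm, hy.2.2.1.symm, hz.2.2.1.symm, hx.2.2.2.2.2.1.symm,
      hy.2.2.2.2.2.1.symm, hz.2.2.2.2.2.1.symm⟩, mem_P3.2 ⟨t.hfD, hx.2.2.2.1.symm, hy.2.2.2.1.symm,
      hz.2.2.2.1.symm, hx.2.2.2.2.2.2.symm, hy.2.2.2.2.2.2.symm, hz.2.2.2.2.2.2.symm⟩⟩

/-- Elements centralising `P3` fix the first member. -/
theorem fix_a {c : G} (hc : ∀ x ∈ P3 D a e f, c * x * c⁻¹ = x) : c * a * c⁻¹ = a := by
  obtain ⟨x, y, z, t', hx, hy, hz⟩ := t.exists_xyz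
  obtain ⟨ha', he', hf'⟩ := t.symm_mem hx hy hz
  obtain ⟨F, i1, i2, ⟨Δ⟩⟩ := t'.h.exists_pd t'.ha t'.he t'.hf
  have hcom : ∀ u ∈ P3 D a e f, Commute u c := by
    intro u hu
    have := hc u hu
    rw [mul_inv_eq_iff_eq_mul] at this
    exact this.symm
  obtain ⟨g, hg⟩ := t'.exists_lin Δ (c := c) (t'.mem_C3.2 ⟨hcom x hx, hcom y hy, hcom z hz⟩)
  obtain ⟨p0, hp00, hp0, e0⟩ := Δ.surj a ha'
  obtain ⟨p1, hp10, hp1, e1⟩ := Δ.surj e he'
  obtain ⟨p2, hp20, hp2, e2⟩ := Δ.surj f hf'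
  have h01 : hermForm 6 F 2 p0 p1 = 0 := (Δ.comm _ _ hp00 hp0 hp10 hp1).1 (by rw [← e0, ← e1]; exact t.ae)
  have h02 : hermForm 6 F 2 p0 p2 = 0 := (Δ.comm _ _ hp00 hp0 hp20 hp2).1 (by rw [← e0, ← e2]; exact t.af)
  have h12 : hermForm 6 F 2 p1 p2 = 0 := (Δ.comm _ _ hp10 hp1 hp20 hp2).1 (by rw [← e1, ← e2]; exact t.ef)
  have hF := Δ.hF
  have hnp : ∀ {u v : Fin 6 → F}, u ≠ 0 → hermForm 6 F 2 u u = 0 → v ≠ 0 → Δ.pt u ≠ Δ.pt v → NP u v := by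
    intro u v hu0 hu hv0 hne c hc
    apply hne
    have hc0 : c ≠ 0 := by rintro rfl; rw [zero_smul] at hc; exact hv0 hc
    rw [hc, Δ.smul u hu0 hu c hc0]
  have hfix := fix_first hF (g := g) (p := ![p0, p1, p2]) (by
      intro i; fin_cases i
      · exact hp00
      · exact hp10
      · exact hp20) (by
      intro i j
      fin_cases i <;> fin_cases j
      · exact hp0
      · exact h01
      · exact h02
      · exact (hermForm_eq_zero_comm hF).1 h01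
      · exact hp1
      · exact h12
      · exact (hermForm_eq_zero_comm hF).1 h02
      · exact (hermForm_eq_zero_comm hF).1 h12
      · exact hp2) (hnp hp00 hp0 hp10 (by
        change Δ.pt p0 ≠ Δ.pt p1
        rw [← e0, ← e1]; exact t.ne_ae)) (by
      intro q hq0 hq hqp hqn
      have q0 : hermForm 6 F 2 q p0 = 0 := hqp 0
      have q1 : hermForm 6 F 2 q p1 = 0 := hqp 1
      have q2 : hermForm 6 F 2 q p2 = 0 := hqp 2
      have hqD := (mem_P3.1 (Δ.mem q hq0 hq)).1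
      have hqP : Δ.pt q ∈ P3 D a e f := by
        rw [mem_P3, e0, e1, e2]
        have nn : ∀ {p : Fin 6 → F}, p ≠ 0 → hermForm 6 F 2 p p = 0 → (∀ β : F, q ≠ β • p) → Δ.pt q ≠ Δ.pt p := by
          intro p hp0 hp hn h1
          obtain ⟨c, hc0, hc⟩ := Δ.inj _ _ hp0 hp hq0 hq h1.symm
          exact hn c hc
        exact ⟨hqD, nn hp00 hp0 (fun β => hqn 0 β), nn hp10 hp1 (fun β => hqn 1 β), nn hp20 hp2 (fun β => hqn 2 β),
          (Δ.comm _ _ hp00 hp0 hq0 hq).2 ((hermForm_eq_zero_comm hF).1 q0),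
          (Δ.comm _ _ hp10 hp1 hq0 hq).2 ((hermForm_eq_zero_comm hF).1 q1),
          (Δ.comm _ _ hp20 hp2 hq0 hq).2 ((hermForm_eq_zero_comm hF).1 q2)⟩
      have h1 := hg q hq0 hq
      rw [hc _ hqP] at h1
      obtain ⟨c, -, hc⟩ := Δ.inj _ _ hq0 hq (act_ne_zero hq0) (by rw [act_form]; exact hq) h1
      exact ⟨c, hc⟩)
  obtain ⟨m, hm0, hm⟩ := hfix
  have hm' : act g p0 = m • p0 := hm
  have h1 := hg p0 hp00 hp0
  rw [hm', Δ.smul p0 hp00 hp0 m hm0, ← e0] at h1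
  exact h1

theorem P3_swap1 : P3 D e a f = P3 D a e f := by
  ext x; rw [mem_P3, mem_P3]; tauto

theorem P3_swap2 : P3 D a f e = P3 D a e f := by
  ext x; rw [mem_P3, mem_P3]; tauto

theorem fix_all {c : G} (hc : ∀ x ∈ P3 D a e f, c * x * c⁻¹ = x) :
    c * a * c⁻¹ = a ∧ c * e * c⁻¹ = e ∧ c * f * c⁻¹ = f := by
  refine ⟨t.fix_a hc, t.swap1.fix_a (by rw [t.P3_swap1]; exact hc), t.swap2.swap1.fix_a ?_⟩
  rw [t.swap2.P3_swap1, t.P3_swap2]; exact hc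

theorem x_mul_a_mem_K {x : G} (hx : x ∈ P3 D a e f) :
    x * a ∈ commutator G ⊓ Subgroup.centralizer ({a, e, f} : Set G) := by
  obtain ⟨h1, -, -, -, h2, h3, h4⟩ := mem_P3.1 hx
  exact ⟨t.mul_mem_L h1 t.ha, t.mem_C3.2 ⟨h2.mul_right (Commute.refl a), h3.mul_right t.ae.symm,
    h4.mul_right t.af.symm⟩⟩

/-- elements of `K` commuting with `P3` -/
theorem mem_E_of_comm {c : G} (hcK : c ∈ commutator G ⊓ Subgroup.centralizer ({a, e, f} : Set G))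
    (hc : ∀ x ∈ P3 D a e f, c * x * c⁻¹ = x) : c ∈ Subgroup.closure ({a * e, a * f} : Set G) := by
  have h1 : (⟨c, hcK⟩ : ↥(commutator G ⊓ Subgroup.centralizer ({a, e, f} : Set G))) ∈ Subgroup.center _ := by
    rw [Subgroup.mem_center_iff]
    intro k
    apply t.β_inj
    rw [map_mul, map_mul]
    apply Subtype.ext
    obtain ⟨hcl, -⟩ := t.mem_C3_iff.1 hcK.2
    have h2 : ∀ z ∈ H23.MM (qperp D a) (qφ D a e) (qφ D a f), Commute z (t.β ⟨c, hcK⟩ :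
        ↥(Subgroup.closure (perp D a)) ⧸ Subgroup.center ↥(Subgroup.closure (perp D a))) := by
      intro z hz
      refine Subgroup.closure_induction (p := fun z _ => Commute z (t.β ⟨c, hcK⟩ :
        ↥(Subgroup.closure (perp D a)) ⧸ Subgroup.center ↥(Subgroup.closure (perp D a)))) ?_ ?_ ?_ ?_ hz
      · rintro z ⟨hz1, hz2⟩
        obtain ⟨e₀, he₀, hae₀⟩ := t.h.core.nc a t.ha
        obtain ⟨x, hx, rfl⟩ := exists_qm hz1.1
        rw [qφ_eq t.he, qm_perp t.h.cls t.h.irr t.ha he₀ hae₀] at hz1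
        rw [qφ_eq t.hf.1, qm_perp t.h.cls t.h.irr t.ha he₀ hae₀] at hz2
        have h3 := hc x ⟨⟨hx, hz1⟩, hx, hz2⟩
        rw [mul_inv_eq_iff_eq_mul] at h3
        have h4 : (⟨x, Subgroup.subset_closure hx⟩ : ↥(Subgroup.closure (perp D a))) * ⟨c, hcl⟩ =
          ⟨c, hcl⟩ * ⟨x, Subgroup.subset_closure hx⟩ := Subtype.ext h3.symm
        rw [t.β_val _ hcl]
        exact congrArg (fun w : ↥(Subgroup.closure (perp D a)) =>
          (w : ↥(Subgroup.closure (perp D a)) ⧸ Subgroup.center ↥(Subgroup.closure (perp D a)))) h4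
      · exact Commute.one_left _
      · intro x y _ _ h3 h4; exact h3.mul_left h4
      · intro x _ h3; exact h3.inv_left
    exact h2 _ (t.β k).2
  exact (t.mem_center_K _).1 h1

end T3

end Cfsg.Agent.FiF6
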