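import Cfsg.Agent.FiF6.Trip24b
import Cfsg.Agent.FiF6.Gen
import Cfsg.Agent.ThreeTransp.Triple

/-!
# Three commuting members of a class of type M(24): the centraliser of the product
-/

set_option autoImplicit false
set_option linter.unusedSectionVars false

namespace Cfsg.Agent.FiF6

open Cfsg.Agent.ThreeTransp Cfsg.Agent.Fi22 Cfsg.Agent.FiF4 Cfsg.Agent.Uni

/-- a normal quasisimple subgroup containing its centraliser is the generalized Fitting subgroup -/
theorem fstar_of_quasi {Γ : Type*} [Group Γ] [Finite Γ] {N : Subgroup Γ} (hn : N.Normal) (hq : Cfsg.IsQuasisimple N)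
    (hC : Subgroup.centralizer (N : Set Γ) ≤ N) : Cfsg.generalizedFittingSubgroup Γ = N := by
  have hcomp := isComponent_of_normal hn hq
  apply le_antisymm
  · have h1 : Cfsg.layer Γ ≤ N := (FStar.layer_le_component_sup_centralizer hcomp).trans (sup_le le_rfl hC)
    have h2 : Cfsg.fittingSubgroup Γ ≤ N := by
      have h3 := FStar.component_commute_fitting hcomp
      rw [Subgroup.commutator_comm, Subgroup.commutator_eq_bot_iff_le_centralizer] at h3
      exact h3.trans hC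
    exact sup_le h1 h2
  · exact (FStar.component_le_layer hcomp).trans FStar.layer_le_generalizedFitting

theorem card_PSU6 {F : Type} [Field F] [Fintype F] (hF : Fintype.card F = 2 ^ 2) :
    Nat.card (MulAut (Cfsg.PSU 6 F 2)) = 6 * Nat.card (Cfsg.PSU 6 F 2) := by
  haveI : Fact (Nat.Prime 2) := ⟨Nat.prime_two⟩
  rw [Cfsg.Agent.S0815.result 2 1 le_rfl (q := 2) (by norm_num) hF 6 (by norm_num) (by norm_num)]
  norm_num

variable {G : Type*} [Group G] [Finite G] {D : Set G}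

namespace T3

variable {a e f : G} (t : T3 D a e f)
include t

theorem hconf : ∀ a1 a2 a3 a4 : G, Conf D a1 a2 a3 a4 → False := fun _ _ _ _ hc =>
  conf_false_24 t.h.cls t.h.irr t.hF.core t.hc3 t.h.typ hc

theorem perm_a {c : G} (hc : Commute c (a * e * f)) : c * a * c⁻¹ = a ∨ c * a * c⁻¹ = e ∨ c * a * c⁻¹ = f := by
  have e1 : (c * a * c⁻¹) * (c * e * c⁻¹) * (c * f * c⁻¹) = a * e * f := by
    calc (c * a * c⁻¹) * (c * e * c⁻¹) * (c * f * c⁻¹) = c * (a * e * f) * c⁻¹ := by group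
      _ = _ := by rw [hc.eq, mul_inv_cancel_right]
  have inj : ∀ u v : G, u ≠ v → c * u * c⁻¹ ≠ c * v * c⁻¹ := fun u v huv h =>
    huv (mul_left_cancel (mul_right_cancel h))
  exact t.hF.triple t.hconf (conj_mem t.h.cls t.ha c) (conj_mem t.h.cls t.heD c) (conj_mem t.h.cls t.hfD c) t.ha t.heD
    t.hfD (inj _ _ t.ne_ae) (inj _ _ t.ne_af) (inj _ _ t.ne_ef) t.ne_ae t.ne_af t.ne_ef
    ((commute_conj_iff c).2 t.ae) ((commute_conj_iff c).2 t.af) ((commute_conj_iff c).2 t.ef) t.ae t.af t.ef e1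

theorem j_swap1 : e * a * f = a * e * f := by rw [t.ae.eq]

theorem j_swap2 : a * f * e = a * e * f := by rw [mul_assoc, ← t.ef.eq, ← mul_assoc]

theorem perm_e {c : G} (hc : Commute c (a * e * f)) : c * e * c⁻¹ = a ∨ c * e * c⁻¹ = e ∨ c * e * c⁻¹ = f := by
  have := t.swap1.perm_a (c := c) (by rw [t.j_swap1]; exact hc)
  tauto

theorem perm_f {c : G} (hc : Commute c (a * e * f)) : c * f * c⁻¹ = a ∨ c * f * c⁻¹ = e ∨ c * f * c⁻¹ = f := by
  have := t.swap2.swap1.perm_a (c := c) (by rw [t.swap2.j_swap1, t.j_swap2]; exact hc)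
  tauto

theorem mem_set {x : G} : (x = a ∨ x = e ∨ x = f) ↔ x ∈ ({a, e, f} : Set G) := by simp

theorem perm_set {c x : G} (hc : Commute c (a * e * f)) (hx : x ∈ ({a, e, f} : Set G)) :
    c * x * c⁻¹ ∈ ({a, e, f} : Set G) := by
  rw [← t.mem_set] at hx ⊢
  rcases hx with rfl | rfl | rfl
  · exact t.perm_a hc
  · exact t.perm_e hc
  · exact t.perm_f hc

theorem perm_set_inv {c x : G} (hc : Commute c (a * e * f)) (hx : x ∈ ({a, e, f} : Set G)) :
    ∃ y ∈ ({a, e, f} : Set G), c * y * c⁻¹ = x := by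
  refine ⟨c⁻¹ * x * c⁻¹⁻¹, t.perm_set hc.inv_left hx, by group⟩

theorem conj_C3 {c g : G} (hc : Commute c (a * e * f)) (hg : g ∈ Subgroup.centralizer ({a, e, f} : Set G)) :
    c * g * c⁻¹ ∈ Subgroup.centralizer ({a, e, f} : Set G) := by
  rw [Subgroup.mem_centralizer_iff] at hg ⊢
  intro x hx
  obtain ⟨y, hy, rfl⟩ := t.perm_set_inv hc hx
  have h1 := hg y hy
  calc c * y * c⁻¹ * (c * g * c⁻¹) = c * (y * g) * c⁻¹ := by group
    _ = c * (g * y) * c⁻¹ := by rw [h1]
    _ = _ := by group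

theorem conj_K {c g : G} (hc : Commute c (a * e * f))
    (hg : g ∈ commutator G ⊓ Subgroup.centralizer ({a, e, f} : Set G)) :
    c * g * c⁻¹ ∈ commutator G ⊓ Subgroup.centralizer ({a, e, f} : Set G) :=
  ⟨(inferInstance : (commutator G).Normal).conj_mem _ hg.1 c, t.conj_C3 hc hg.2⟩

theorem conj_E {c g : G} (hc : Commute c (a * e * f)) (hg : g ∈ Subgroup.closure ({a * e, a * f} : Set G)) :
    c * g * c⁻¹ ∈ Subgroup.closure ({a * e, a * f} : Set G) := by
  have hgK := t.E_le_K hg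
  have hK := t.conj_K hc hgK
  rw [← t.mem_center_K ⟨_, hK⟩, Subgroup.mem_center_iff]
  have h1 := (t.mem_center_K ⟨g, hgK⟩).2 hg
  rw [Subgroup.mem_center_iff] at h1
  rintro ⟨k, hk⟩
  have h2 := h1 ⟨_, t.conj_K hc.inv_left hk⟩
  have h3 : (c⁻¹ * k * c⁻¹⁻¹) * g = g * (c⁻¹ * k * c⁻¹⁻¹) := congrArg Subtype.val h2
  apply Subtype.ext
  calc k * (c * g * c⁻¹) = c * ((c⁻¹ * k * c⁻¹⁻¹) * g) * c⁻¹ := by group
    _ = c * (g * (c⁻¹ * k * c⁻¹⁻¹)) * c⁻¹ := by rw [h3]
    _ = (c * g * c⁻¹) * k := by group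

theorem K_le : commutator G ⊓ Subgroup.centralizer ({a, e, f} : Set G) ≤
    commutator G ⊓ Subgroup.centralizer ({a * e * f} : Set G) := by
  refine inf_le_inf le_rfl ?_
  intro g hg
  obtain ⟨h1, h2, h3⟩ := t.mem_C3.1 hg
  rw [Subgroup.mem_centralizer_singleton_iff]
  exact ((h1.symm.mul_right h2.symm).mul_right h3.symm).eq

theorem conj_P {c x : G} (hc : Commute c (a * e * f)) (hx : x ∈ P3 D a e f) : c * x * c⁻¹ ∈ P3 D a e f := by
  have h0 := (mem_P3.1 hx)
  have h1 : ∀ y ∈ ({a, e, f} : Set G), x ≠ y ∧ Commute y x := by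
    intro y hy
    rw [← t.mem_set] at hy
    rcases hy with rfl | rfl | rfl
    · exact ⟨h0.2.1, h0.2.2.2.2.1⟩
    · exact ⟨h0.2.2.1, h0.2.2.2.2.2.1⟩
    · exact ⟨h0.2.2.2.1, h0.2.2.2.2.2.2⟩
  have h2 : ∀ y ∈ ({a, e, f} : Set G), c * x * c⁻¹ ≠ y ∧ Commute y (c * x * c⁻¹) := by
    intro y hy
    obtain ⟨z, hz, rfl⟩ := t.perm_set_inv hc hy
    exact ⟨fun h => (h1 z hz).1 (mul_left_cancel (mul_right_cancel h)), (commute_conj_iff c).2 (h1 z hz).2⟩
  rw [mem_P3]
  have ma := h2 a (by simp)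
  have me := h2 e (by simp)
  have mf := h2 f (by simp)
  exact ⟨conj_mem t.h.cls h0.1 c, ma.1, me.1, mf.1, ma.2, me.2, mf.2⟩

/-- elements acting trivially on `K/E` -/
theorem faithful {c : G} (hcL : c ∈ commutator G) (hc : Commute c (a * e * f))
    (h : ∀ k ∈ commutator G ⊓ Subgroup.centralizer ({a, e, f} : Set G), c * k * c⁻¹ * k⁻¹ ∈
      Subgroup.closure ({a * e, a * f} : Set G)) : c ∈ Subgroup.closure ({a * e, a * f} : Set G) := by
  have key : ∀ x ∈ P3 D a e f, c * x * c⁻¹ = x := by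
    intro x hx
    have hx' := t.conj_P hc hx
    have h0 := mem_P3.1 hx
    have h0' := mem_P3.1 hx'
    have h1 := h _ (t.x_mul_a_mem_K hx)
    -- `a * (c a c⁻¹)` is in `E`
    have h2 : (c * a * c⁻¹) * a ∈ Subgroup.closure ({a * e, a * f} : Set G) := by
      rw [t.mem_E]
      rcases t.perm_a hc with h3 | h3 | h3 <;> rw [h3]
      · left; exact t.aa
      · right; left; exact t.ae.eq.symm
      · right; right; left; exact t.af.eq.symm
    have hxinv : x⁻¹ = x := ThreeTransp.inv_eq t.hD h0.1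
    have hainv : a⁻¹ = a := ThreeTransp.inv_eq t.hD t.ha
    have h4 : c * (x * a) * c⁻¹ * (x * a)⁻¹ = (c * x * c⁻¹ * x) * ((c * a * c⁻¹) * a) := by
      rw [_root_.mul_inv_rev, hxinv, hainv]
      have e1 : (c * a * c⁻¹) * a * x = x * ((c * a * c⁻¹) * a) := by
        have h5 := t.E_le_K h2
        rw [Subgroup.mem_inf] at h5
        have h6 : Commute (c * a * c⁻¹) x := by
          rcases t.perm_a hc with h3 | h3 | h3 <;> rw [h3]
          · exact h0.2.2.2.2.1
          · exact h0.2.2.2.2.2.1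
          · exact h0.2.2.2.2.2.2
        exact (h6.mul_left h0.2.2.2.2.1).eq
      calc c * (x * a) * c⁻¹ * (a * x) = (c * x * c⁻¹) * ((c * a * c⁻¹) * a * x) := by group
        _ = _ := by rw [e1]; simp only [mul_assoc]
    rw [h4] at h1
    have h5 : c * x * c⁻¹ * x ∈ Subgroup.closure ({a * e, a * f} : Set G) := by
      have := mul_mem h1 (inv_mem h2)
      rwa [mul_inv_cancel_right] at this
    by_contra hne
    have hpair : ∀ u v : G, u ∈ D → v ∈ D → u ≠ v → Commute u v → c * x * c⁻¹ * x = u * v → c * x * c⁻¹ = u ∨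
        c * x * c⁻¹ = v := by
      intro u v hu hv huv cuv h6
      refine t.hF.pair h0'.1 h0.1 hu hv hne huv ?_ cuv h6
      -- `c x c⁻¹` commutes with `x` since the product is in `E`
      have h7 := t.mem_C3.1 (t.E_le_K h5).2
      have h8 : Commute (u * v) x := by
        rw [← h6]
        rcases t.mem_E.1 h5 with h9 | h9 | h9 | h9 <;> rw [h9]
        · exact Commute.one_left _
        · exact h0.2.2.2.2.1.mul_left h0.2.2.2.2.2.1
        · exact h0.2.2.2.2.1.mul_left h0.2.2.2.2.2.2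
        · exact h0.2.2.2.2.2.1.mul_left h0.2.2.2.2.2.2
      have h9 : c * x * c⁻¹ = u * v * x := by
        rw [← h6, mul_assoc _ x x, mul_self t.hD h0.1, mul_one]
      rw [h9]
      exact h8.mul_left (Commute.refl x)
    rcases t.mem_E.1 h5 with h9 | h9 | h9 | h9
    · apply hne
      rw [mul_eq_one_iff_eq_inv, hxinv] at h9
      exact h9
    · rcases hpair a e t.ha t.heD t.ne_ae t.ae h9 with h6 | h6
      · exact h0'.2.1 h6
      · exact h0'.2.2.1 h6
    · rcases hpair a f t.ha t.hfD t.ne_af t.af h9 with h6 | h6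
      · exact h0'.2.1 h6
      · exact h0'.2.2.2.1 h6
    · rcases hpair e f t.heD t.hfD t.ne_ef t.ef h9 with h6 | h6
      · exact h0'.2.2.1 h6
      · exact h0'.2.2.2.1 h6
  have hfix := t.fix_all key
  have hcK : c ∈ commutator G ⊓ Subgroup.centralizer ({a, e, f} : Set G) := by
    refine ⟨hcL, t.mem_C3.2 ?_⟩
    have hcom : ∀ u, c * u * c⁻¹ = u → Commute u c := by
      intro u hu
      rw [mul_inv_eq_iff_eq_mul] at hu
      exact hu.symm
    exact ⟨hcom _ hfix.1, hcom _ hfix.2.1, hcom _ hfix.2.2⟩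
  exact t.mem_E_of_comm hcK key

end T3

end Cfsg.Agent.FiF6
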