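import Cfsg.Agent.FiF6.Trip24c

/-!
# Three commuting members of a class of type M(24): quotients
-/

set_option autoImplicit false
set_option linter.unusedSectionVars false

namespace Cfsg.Agent.FiF6

open Cfsg.Agent.ThreeTransp Cfsg.Agent.Fi22 Cfsg.Agent.FiF4 Cfsg.Agent.Uni

variable {G : Type*} [Group G] [Finite G] {D : Set G}

namespace T3

variable {a e f : G} (t : T3 D a e f)
include t

theorem commute_of_mem {c : G} (hc : c ∈ commutator G ⊓ Subgroup.centralizer ({a * e * f} : Set G)) :
    Commute c (a * e * f) := Subgroup.mem_centralizer_singleton_iff.1 hc.2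

theorem normal_K : ((commutator G ⊓ Subgroup.centralizer ({a, e, f} : Set G)).subgroupOf
    (commutator G ⊓ Subgroup.centralizer ({a * e * f} : Set G))).Normal := by
  constructor
  rintro ⟨k, hk⟩ hk' ⟨c, hc⟩
  exact t.conj_K (t.commute_of_mem hc) hk'

theorem normal_E : ((Subgroup.closure ({a * e, a * f} : Set G)).subgroupOf
    (commutator G ⊓ Subgroup.centralizer ({a * e * f} : Set G))).Normal := by
  constructor
  rintro ⟨k, hk⟩ hk' ⟨c, hc⟩
  exact t.conj_E (t.commute_of_mem hc) hk'

theorem equiv_perm : ∃ _ : ((commutator G ⊓ Subgroup.centralizer ({a, e, f} : Set G)).subgroupOf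
    (commutator G ⊓ Subgroup.centralizer ({a * e * f} : Set G))).Normal,
    Nonempty (↥(commutator G ⊓ Subgroup.centralizer ({a * e * f} : Set G)) ⧸
      ((commutator G ⊓ Subgroup.centralizer ({a, e, f} : Set G)).subgroupOf
    (commutator G ⊓ Subgroup.centralizer ({a * e * f} : Set G))) ≃* Equiv.Perm (Fin 3)) := by
  haveI := t.normal_K
  refine ⟨t.normal_K, ?_⟩
  obtain ⟨-, hn, ⟨g⟩⟩ := quot_equiv_perm t.hF t.hc3 t.hconf t.ha t.heD t.hfD t.ne_ae t.ne_af t.ne_ef t.ae t.af t.ef
    (Subgroup.centralizer ({a, e, f} : Set G)) (Subgroup.centralizer ({a * e * f} : Set G)) rfl rfl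
  let φ : ↥(commutator G ⊓ Subgroup.centralizer ({a * e * f} : Set G)) →* Equiv.Perm (Fin 3) :=
    (g.toMonoidHom.comp (QuotientGroup.mk' _)).comp (Subgroup.inclusion inf_le_right)
  have hker : ∀ x, φ x = 1 ↔ (x : G) ∈ Subgroup.centralizer ({a, e, f} : Set G) := by
    intro x
    have h1 : φ x = g (QuotientGroup.mk' _ (Subgroup.inclusion inf_le_right x)) := rfl
    rw [h1, map_eq_one_iff g g.injective, QuotientGroup.mk'_apply, QuotientGroup.eq_one_iff, Subgroup.mem_subgroupOf]
    rfl
  have ha3 : a ∈ Subgroup.centralizer ({a, e, f} : Set G) := t.mem_C3.2 ⟨Commute.refl a, t.ae.symm, t.af.symm⟩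
  have haj : a ∈ Subgroup.centralizer ({a * e * f} : Set G) := by
    rw [Subgroup.mem_centralizer_singleton_iff]
    exact (((Commute.refl a).mul_right t.ae).mul_right t.af).eq
  have hsurj : Function.Surjective φ := by
    intro y
    obtain ⟨z, rfl⟩ := g.surjective y
    obtain ⟨⟨c, hc⟩, rfl⟩ := QuotientGroup.mk_surjective z
    rcases t.mem_L_or t.ha c with h1 | h1
    · exact ⟨⟨c, h1, hc⟩, rfl⟩
    · refine ⟨⟨c * a, h1, mul_mem hc haj⟩, ?_⟩
      have h2 : φ ⟨c * a, h1, mul_mem hc haj⟩ = g (QuotientGroup.mk' _ (⟨c, hc⟩ * ⟨a, haj⟩)) := rfl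
      rw [h2]
      congr 1
      rw [QuotientGroup.mk'_apply]
      exact QuotientGroup.mk_mul_of_mem _ (show (⟨a, haj⟩ : ↥(Subgroup.centralizer ({a * e * f} : Set G))) ∈
        (Subgroup.centralizer ({a, e, f} : Set G)).subgroupOf (Subgroup.centralizer ({a * e * f} : Set G)) from ha3)
  have hkk : ((commutator G ⊓ Subgroup.centralizer ({a, e, f} : Set G)).subgroupOf
    (commutator G ⊓ Subgroup.centralizer ({a * e * f} : Set G))) = φ.ker := by
    ext x
    rw [MonoidHom.mem_ker, hker, Subgroup.mem_subgroupOf, Subgroup.mem_inf]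
    exact ⟨fun h => h.2, fun h => ⟨x.2.1, h⟩⟩
  exact ⟨(QuotientGroup.quotientMulEquivOfEq hkk).trans (QuotientGroup.quotientKerEquivOfSurjective φ hsurj)⟩

theorem centralizer_E : commutator G ⊓ Subgroup.centralizer ({a, e, f} : Set G) = commutator G ⊓
    Subgroup.centralizer ((Subgroup.closure ({a * e, a * f} : Set G) : Subgroup G) : Set G) := by
  apply le_antisymm
  · refine le_inf inf_le_left ?_
    intro g hg
    rw [Subgroup.mem_centralizer_iff]
    intro x hx
    have h1 := (t.mem_center_K ⟨x, t.E_le_K hx⟩).2 hx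
    rw [Subgroup.mem_center_iff] at h1
    exact (congrArg Subtype.val (h1 ⟨g, hg⟩)).symm
  · refine le_inf inf_le_left ?_
    rintro g ⟨-, hg⟩
    replace hg := Subgroup.mem_centralizer_iff.1 hg
    have h1 : Commute g (a * e) := (hg _ (Subgroup.subset_closure (by simp))).symm
    have h2 : Commute g (a * f) := (hg _ (Subgroup.subset_closure (by simp))).symm
    have inj : ∀ u v : G, u ≠ v → g * u * g⁻¹ ≠ g * v * g⁻¹ := fun u v huv h =>
      huv (mul_left_cancel (mul_right_cancel h))
    have key : ∀ u v : G, u ∈ D → v ∈ D → u ≠ v → Commute u v → Commute g (u * v) →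
        g * u * g⁻¹ = u ∨ g * u * g⁻¹ = v := by
      intro u v hu hv huv cuv hc
      refine t.hF.pair (conj_mem t.h.cls hu g) (conj_mem t.h.cls hv g) hu hv (inj _ _ huv) huv
        ((commute_conj_iff g).2 cuv) cuv ?_
      calc (g * u * g⁻¹) * (g * v * g⁻¹) = g * (u * v) * g⁻¹ := by group
        _ = _ := by rw [hc.eq, mul_inv_cancel_right]
    have ha : g * a * g⁻¹ = a := by
      rcases key a e t.ha t.heD t.ne_ae t.ae h1 with h3 | h3
      · exact h3
      · rcases key a f t.ha t.hfD t.ne_af t.af h2 with h4 | h4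
        · exact h4
        · exact absurd (h3.symm.trans h4) t.ne_ef
    have hca : Commute g a := by rw [mul_inv_eq_iff_eq_mul] at ha; exact ha
    have hce : Commute g e := by
      have : e = a * (a * e) := by rw [← mul_assoc, t.aa, one_mul]
      rw [this]; exact hca.mul_right h1
    have hcf : Commute g f := by
      have : f = a * (a * f) := by rw [← mul_assoc, t.aa, one_mul]
      rw [this]; exact hca.mul_right h2
    exact t.mem_C3.2 ⟨hca.symm, hce.symm, hcf.symm⟩

theorem normal_EK : ((Subgroup.closure ({a * e, a * f} : Set G)).subgroupOf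
    (commutator G ⊓ Subgroup.centralizer ({a, e, f} : Set G))).Normal := by
  have h : ((Subgroup.closure ({a * e, a * f} : Set G)).subgroupOf
    (commutator G ⊓ Subgroup.centralizer ({a, e, f} : Set G))) = Subgroup.center _ := by
    ext k
    rw [Subgroup.mem_subgroupOf, t.mem_center_K]
  rw [h]; infer_instance

theorem main : ∃ (_ : ((Subgroup.closure ({a * e, a * f} : Set G)).subgroupOf
    (commutator G ⊓ Subgroup.centralizer ({a, e, f} : Set G))).Normal)
    (_ : ((Subgroup.closure ({a * e, a * f} : Set G)).subgroupOf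
    (commutator G ⊓ Subgroup.centralizer ({a * e * f} : Set G))).Normal)
    (F : Type) (_ : Field F) (_ : Fintype F), Fintype.card F = 4 ∧
    Nonempty (↥(commutator G ⊓ Subgroup.centralizer ({a, e, f} : Set G)) ⧸
      (Subgroup.closure ({a * e, a * f} : Set G)).subgroupOf
        (commutator G ⊓ Subgroup.centralizer ({a, e, f} : Set G)) ≃* Cfsg.PSU 6 F 2) ∧
    Nonempty (↥(commutator G ⊓ Subgroup.centralizer ({a * e * f} : Set G)) ⧸
      (Subgroup.closure ({a * e, a * f} : Set G)).subgroupOf
        (commutator G ⊓ Subgroup.centralizer ({a * e * f} : Set G)) ≃* MulAut (Cfsg.PSU 6 F 2)) := by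
  haveI nEK := t.normal_EK
  haveI nE := t.normal_E
  haveI nK := t.normal_K
  obtain ⟨F, i1, i2, hF4, φ, hφ, hker⟩ := t.exists_φ
  have hF : Fintype.card F = 2 ^ 2 := hF4
  refine ⟨nEK, nE, F, i1, i2, hF4, ?_, ?_⟩
  · have h1 : (Subgroup.closure ({a * e, a * f} : Set G)).subgroupOf
        (commutator G ⊓ Subgroup.centralizer ({a, e, f} : Set G)) = φ.ker := by
      ext k
      rw [MonoidHom.mem_ker, hker, Subgroup.mem_subgroupOf]
    exact ⟨(QuotientGroup.quotientMulEquivOfEq h1).trans (QuotientGroup.quotientKerEquivOfSurjective φ hφ)⟩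
  · haveI : Finite (Cfsg.PSU 6 F 2) := Finite.of_surjective φ hφ
    let φ' : ↥((commutator G ⊓ Subgroup.centralizer ({a, e, f} : Set G)).subgroupOf
      (commutator G ⊓ Subgroup.centralizer ({a * e * f} : Set G))) →* Cfsg.PSU 6 F 2 :=
      φ.comp (Subgroup.subgroupOfEquivOfLe t.K_le).toMonoidHom
    have hφ' : Function.Surjective φ' := hφ.comp (Subgroup.subgroupOfEquivOfLe t.K_le).surjective
    apply equiv_mulAut _ _ φ' hφ'
    · intro k
      rw [Subgroup.mem_subgroupOf]
      exact hker _
    · rw [card_PSU6 hF]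
      obtain ⟨nn, ⟨g⟩⟩ := t.equiv_perm
      have h1 : Nat.card (↥(commutator G ⊓ Subgroup.centralizer ({a * e * f} : Set G)) ⧸
        ((commutator G ⊓ Subgroup.centralizer ({a, e, f} : Set G)).subgroupOf
        (commutator G ⊓ Subgroup.centralizer ({a * e * f} : Set G)))) = 6 := by
        rw [Nat.card_congr g.toEquiv, Nat.card_perm, Nat.card_fin]; rfl
      have h2 : (Subgroup.closure ({a * e, a * f} : Set G)).relIndex
          (commutator G ⊓ Subgroup.centralizer ({a, e, f} : Set G)) = Nat.card (Cfsg.PSU 6 F 2) := by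
        have h3 : (Subgroup.closure ({a * e, a * f} : Set G)).subgroupOf
          (commutator G ⊓ Subgroup.centralizer ({a, e, f} : Set G)) = φ.ker := by
          ext k
          rw [MonoidHom.mem_ker, hker, Subgroup.mem_subgroupOf]
        rw [Subgroup.relIndex, h3, Subgroup.index_ker, MonoidHom.range_eq_top.2 hφ, Subgroup.card_top]
      have h3 := Subgroup.relIndex_mul_relIndex (Subgroup.closure ({a * e, a * f} : Set G))
        (commutator G ⊓ Subgroup.centralizer ({a, e, f} : Set G))
        (commutator G ⊓ Subgroup.centralizer ({a * e * f} : Set G)) t.E_le_K t.K_le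
      have h4 : (commutator G ⊓ Subgroup.centralizer ({a, e, f} : Set G)).relIndex
        (commutator G ⊓ Subgroup.centralizer ({a * e * f} : Set G)) = 6 := h1
      rw [h2, h4] at h3
      have h5 : Nat.card (↥(commutator G ⊓ Subgroup.centralizer ({a * e * f} : Set G)) ⧸
        (Subgroup.closure ({a * e, a * f} : Set G)).subgroupOf
        (commutator G ⊓ Subgroup.centralizer ({a * e * f} : Set G))) =
        (Subgroup.closure ({a * e, a * f} : Set G)).relIndex
          (commutator G ⊓ Subgroup.centralizer ({a * e * f} : Set G)) := rfl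
      rw [h5, ← h3, mul_comm]
    · rintro ⟨c, hc⟩ h
      rw [Subgroup.mem_subgroupOf]
      apply t.faithful hc.1 (t.commute_of_mem hc)
      intro k hk
      exact h ⟨k, t.K_le hk⟩ hk

theorem fstar : (Cfsg.generalizedFittingSubgroup ↥(commutator G ⊓ Subgroup.centralizer ({a * e * f} : Set G))).map
    (commutator G ⊓ Subgroup.centralizer ({a * e * f} : Set G)).subtype =
    commutator G ⊓ Subgroup.centralizer ({a, e, f} : Set G) := by
  rw [fstar_of_quasi (N := (commutator G ⊓ Subgroup.centralizer ({a, e, f} : Set G)).subgroupOf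
    (commutator G ⊓ Subgroup.centralizer ({a * e * f} : Set G))) t.normal_K
    (FStar.isQuasisimple_subgroupOf t.K_le |>.2 t.quasi_K) ?_]
  · exact Subgroup.map_subgroupOf_eq_of_le t.K_le
  · rintro ⟨c, hc⟩ h
    rw [Subgroup.mem_subgroupOf]
    apply t.E_le_K
    apply t.faithful hc.1 (t.commute_of_mem hc)
    intro k hk
    have h1 := Subgroup.mem_centralizer_iff.1 h ⟨k, t.K_le hk⟩ hk
    have h2 : k * c = c * k := congrArg Subtype.val h1
    have h3 : c * k * c⁻¹ * k⁻¹ = 1 := by rw [← h2]; group
    rw [h3]; exact one_mem _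

end T3

end Cfsg.Agent.FiF6
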